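import Cfsg.Agent.Lib.Helper35.Fi22a.Col0

namespace Cfsg.Agent.Lib.Helper35.Fi22a

open Cfsg.Agent.Lib.Helper35

theorem tchk0 : treeChk PresFi22.cc.inv 9 (fullBases 9 PresFi22.cc.inv PresFi22.R) (fullSub PresFi22.cc.inv S) 0 tree0 = true := by decide +kernel
theorem tchk1 : treeChk PresFi22.cc.inv 9 (fullBases 9 PresFi22.cc.inv PresFi22.R) (fullSub PresFi22.cc.inv S) 1 tree1 = true := by decide +kernel
theorem tchk2 : treeChk PresFi22.cc.inv 9 (fullBases 9 PresFi22.cc.inv PresFi22.R) (fullSub PresFi22.cc.inv S) 2 tree2 = true := by decide +kernel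
theorem tchk3 : treeChk PresFi22.cc.inv 9 (fullBases 9 PresFi22.cc.inv PresFi22.R) (fullSub PresFi22.cc.inv S) 3 tree3 = true := by decide +kernel
theorem tchk4 : treeChk PresFi22.cc.inv 9 (fullBases 9 PresFi22.cc.inv PresFi22.R) (fullSub PresFi22.cc.inv S) 4 tree4 = true := by decide +kernel
theorem tchk5 : treeChk PresFi22.cc.inv 9 (fullBases 9 PresFi22.cc.inv PresFi22.R) (fullSub PresFi22.cc.inv S) 5 tree5 = true := by decide +kernel
theorem tchk6 : treeChk PresFi22.cc.inv 9 (fullBases 9 PresFi22.cc.inv PresFi22.R) (fullSub PresFi22.cc.inv S) 6 tree6 = true := by decide +kernel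
theorem tchk7 : treeChk PresFi22.cc.inv 9 (fullBases 9 PresFi22.cc.inv PresFi22.R) (fullSub PresFi22.cc.inv S) 7 tree7 = true := by decide +kernel
theorem tchk8 : treeChk PresFi22.cc.inv 9 (fullBases 9 PresFi22.cc.inv PresFi22.R) (fullSub PresFi22.cc.inv S) 8 tree8 = true := by decide +kernel
theorem tchk9 : treeChk PresFi22.cc.inv 9 (fullBases 9 PresFi22.cc.inv PresFi22.R) (fullSub PresFi22.cc.inv S) 9 tree9 = true := by decide +kernel

noncomputable def certData2 : CertData2 PresFi22.cc.C PresFi22.cc.inv PresFi22.R S 3510 where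
  P := par
  hP := ⟨by decide +kernel, by decide +kernel, by decide +kernel, by decide +kernel, by decide +kernel⟩
  tabs := tabs
  N := 3533
  st := st
  hst := hst
  trees := trees
  je := je
  pe := pe
  rb := 5
  mR := 31
  cK := 16
  hcK := by decide +kernel
  htree := by
    intro l hl
    have hl' : l ≤ 9 := hl
    interval_cases l
    exacts [tchk0, tchk1, tchk2, tchk3, tchk4, tchk5, tchk6, tchk7, tchk8, tchk9]
  hN := by decide +kernel
  hN1 := by decide +kernel
  hlo := by
    intro l hl
    have hl' : l ≤ 9 := hl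
    interval_cases l <;> decide +kernel
  hhi := by
    intro l hl
    have hl' : l ≤ 9 := hl
    interval_cases l <;> decide +kernel
  hz := by
    intro l hl
    have hl' : 9 < l := hl
    obtain ⟨k, rfl⟩ : ∃ k, l = k + 10 := ⟨l - 10, by omega⟩
    rfl
  hcol := by
    intro l hl
    have hl' : l < 9 := hl
    interval_cases l
    exacts [s0u0, s1u0, s2u0, s3u0, s4u0, s5u0, s6u0, s7u0, s8u0]
  heps := s9u0
  hcount := gn0

noncomputable def certData : CertData PresFi22.cc.C PresFi22.cc.inv PresFi22.R S 3510 := certData2.toCertData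

end Cfsg.Agent.Lib.Helper35.Fi22a
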